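import Cfsg.Agent.Leech.Pairs

/-! The monomial subgroup is maximal in `Co0`. -/

set_option autoImplicit false

namespace Cfsg.Agent.Leech
open Cfsg Finset

theorem index_Nm : Nm.index = 8292375 := by
  have := Nm.index_mul_card
  rw [card_Nm, card_Co0] at this
  exact Nat.eq_of_mul_eq_mul_right (by norm_num) (this.trans (by norm_num))

theorem exists_noncw {c : Finset GolayPt} (hc : Cw c) (h0 : c.Nonempty) (h1 : c.card ≤ 16) :
    ∃ σ : M24, ¬ Cw (c ∩ c.map (σ : Equiv.Perm GolayPt).toEmbedding) := by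
  have h2 : 8 ≤ c.card := by have := hc.card; have := h0.card_pos; omega
  obtain ⟨p, hp, q, hq, hpq⟩ := Finset.one_lt_card.1 (show 1 < c.card by omega)
  obtain ⟨r, s, -, hr, hs, -, hrs, -, -⟩ := exists_three_notin c (by omega)
  obtain ⟨σ, e1, e2, e3⟩ := exists_m24_3 (a := p) (b := r) (c := s) (a' := p) (b' := r) (c' := q)
    (fun e => hr (e ▸ hp)) (fun e => hs (e ▸ hp)) hrs (fun e => hr (e ▸ hp)) hpq
    (fun e => hr (e ▸ hq))
  refine ⟨σ, fun h => ?_⟩
  set d := c.map (σ : Equiv.Perm GolayPt).toEmbedding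
  have mem : ∀ x, (σ : Equiv.Perm GolayPt) x ∈ d ↔ x ∈ c := fun x => by simp [d]
  have g1 : p ∈ c ∩ d := Finset.mem_inter.2 ⟨hp, e1 ▸ (mem p).2 hp⟩
  have g2 : q ∉ d := e3 ▸ fun e => hs ((mem s).1 e)
  have g3 : r ∉ d := e2 ▸ fun e => hr ((mem r).1 e)
  have g4 : symmDiff c (c ∩ d) = c \ d := by
    ext x; simp only [Finset.mem_symmDiff, Finset.mem_inter, Finset.mem_sdiff]; tauto
  have g5 := (hc.symmDiff h).card
  rw [g4] at g5
  have g6 : 0 < (c \ d).card := Finset.card_pos.2 ⟨q, Finset.mem_sdiff.2 ⟨hq, g2⟩⟩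
  have g7 : 0 < (c ∩ d).card := Finset.card_pos.2 ⟨p, g1⟩
  have g8 := h.card
  have g9 := Finset.card_sdiff_add_card_inter c d
  have g10 := Finset.card_union_add_card_inter c d
  have g11 : d.card = c.card := Finset.card_map _
  have g12 : (c ∪ d).card < 24 := by
    rw [← card_pt]
    exact Finset.card_lt_univ_of_notMem (x := r) (by simp [hr, g3])
  omega

section
variable {H : Subgroup Co0} (hH : Nm ≤ H)
include hH

theorem orbit_cong {x y : leechLattice} (hx : x ∈ MulAction.orbit H (e8 none))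
    (hy : sqNorm (y : V) = 64) (h : Cong y x) : y ∈ MulAction.orbit H (e8 none) := by
  obtain ⟨g, rfl⟩ := hx
  obtain ⟨k, rfl⟩ := trans_norm (e8 none) y (e8_norm _).le (by rw [hy, e8_norm])
  have h1 := Cong.smul h (g : Co0)⁻¹
  rw [← mul_smul, show (fun m : H => m • e8 none) g = (g : Co0) • e8 none from rfl,
    inv_smul_smul] at h1
  refine ⟨⟨k, ?_⟩, rfl⟩
  have := H.mul_mem g.2 (hH h1)
  rwa [mul_inv_cancel_left] at this

omit hH in
theorem orbit_dot {x y : leechLattice} (hx : x ∈ MulAction.orbit H (e8 none))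
    (hy : y ∈ MulAction.orbit H (e8 none)) :
    ∃ z ∈ MulAction.orbit H (e8 none), 8 * (z : V) none = dotInt (y : V) (x : V) := by
  obtain ⟨g, rfl⟩ := hx
  refine ⟨g⁻¹ • y, MulAction.mem_orbit_of_mem_orbit _ hy, ?_⟩
  rw [← dot_e8, ← dot_smul (g : Co0)]
  congr 2
  exact smul_inv_smul g y

omit hH in
theorem orbit_norm64 {x : leechLattice} (hx : x ∈ MulAction.orbit H (e8 none)) :
    sqNorm (x : V) = 64 := by
  obtain ⟨g, rfl⟩ := hx
  exact (norm_smul g.1 _).trans (e8_norm _)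

theorem orbit_Nm {x : leechLattice} (hx : x ∈ MulAction.orbit H (e8 none)) {g : Co0} (hg : g ∈ Nm) :
    g • x ∈ MulAction.orbit H (e8 none) := MulAction.mem_orbit_of_mem_orbit (⟨g, hH hg⟩ : H) hx

theorem orbit_odd_of_two {x : leechLattice} (hx : x ∈ MulAction.orbit H (e8 none)) {p : GolayPt}
    (hp : (x : V) p % 4 = 2) : ∃ z ∈ MulAction.orbit H (e8 none), Odd ((z : V) none) := by
  obtain ⟨y, h1, h2, -⟩ := leech_even x.2 (i₀ := p) (Int.even_iff.2 (by omega))
  have h3 := card_oddSet_le y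
  have h4 : sqNorm (x : V) = 4 * ∑ i, y i ^ 2 := by
    rw [sqNorm_def, Finset.mul_sum]
    exact Finset.sum_congr rfl fun i _ => by rw [h1]; ring
  have h5 := orbit_norm64 hx
  obtain ⟨σ, hσ⟩ := exists_noncw h2 ⟨p, (mem_oddSet _ _).2 (Int.odd_iff.2 (by have := h1 p; omega))⟩
    (by omega)
  obtain ⟨d, hd, ho⟩ := exists_cw_odd hσ
  have a1 := orbit_Nm hH hx (permCo_mem σ)
  have a2 := orbit_Nm hH a1 (signCo_mem d hd)
  obtain ⟨z1, hz1, e1⟩ := orbit_dot hx a1
  obtain ⟨z2, hz2, e2⟩ := orbit_dot hx a2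
  let t : V := fun i => y ((σ : Equiv.Perm GolayPt).symm i) * y i
  have e3 : dotInt ((permCo σ • x : leechLattice) : V) (x : V) -
      dotInt ((signCo d hd • permCo σ • x : leechLattice) : V) (x : V) = 8 * ∑ i ∈ d, t i := by
    have e0 : ∑ i ∈ d, t i = ∑ i, if i ∈ d then t i else 0 := by
      rw [Finset.sum_ite_mem, Finset.univ_inter]
    rw [dotInt_def, dotInt_def, ← Finset.sum_sub_distrib, e0, Finset.mul_sum]
    refine Finset.sum_congr rfl fun i _ => ?_
    rw [signCo_apply, permCo_apply, h1, h1]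
    simp only [t]
    split_ifs <;> ring
  have e4 := sum_filter_parity t d
  have e5 : d ∩ oddSet t = oddSet y ∩ (oddSet y).map (σ : Equiv.Perm GolayPt).toEmbedding ∩ d := by
    ext i
    simp only [Finset.mem_inter, mem_oddSet, t, Int.odd_mul, Finset.mem_map_equiv]
    tauto
  rw [e5] at e4
  rw [Nat.odd_iff] at ho
  by_cases h : Odd ((z1 : V) none)
  · exact ⟨z1, hz1, h⟩
  · rw [Int.odd_iff] at h
    exact ⟨z2, hz2, Int.odd_iff.2 (by omega)⟩

theorem orbit_odd_of_four {x : leechLattice} (hx : x ∈ MulAction.orbit H (e8 none)) {p : GolayPt}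
    (hp : (x : V) p % 8 = 4) : ∃ z ∈ MulAction.orbit H (e8 none), Odd ((z : V) none) := by
  by_cases h0 : ∃ q, (x : V) q % 4 = 2
  · obtain ⟨q, hq⟩ := h0; exact orbit_odd_of_two hH hx hq
  push Not at h0
  have h5 := orbit_norm64 hx
  have h1 := card_filter_mul_le x (fun i => (x : V) i ≠ 0) 16 fun i hi => by
    have : (x : V) i ≤ -4 ∨ 4 ≤ (x : V) i := by
      have := leech_parity x.2 i p
      have := h0 i
      omega
    rcases this with h | h <;> nlinarith
  obtain ⟨B, hB, hB4⟩ := Finset.exists_superset_card_eq (s := univ.filter fun i => (x : V) i ≠ 0)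
    (n := 4) (by omega) (by rw [card_pt]; norm_num)
  have hpB : p ∈ B := hB (by simp; omega)
  obtain ⟨q, r, s, h2, h3, h4, e⟩ := Finset.card_eq_three.1
    (show (B.erase p).card = 3 by rw [Finset.card_erase_of_mem hpB, hB4])
  have m : ∀ i, i ∈ B.erase p ↔ i = q ∨ i = r ∨ i = s := fun i => by rw [e]; simp
  obtain ⟨q', r', s', h2', h3', h4', h6, h7, h8⟩ := exists_three_notin B (by omega)
  obtain ⟨σ, e1, e2, e3, e4⟩ := exists_m24_4 (a := p) (b := q') (c := r') (d := s') (a' := p)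
    (b' := q) (c' := r) (d' := s) (fun e => h2' (e ▸ hpB)) (fun e => h3' (e ▸ hpB))
    (fun e => h4' (e ▸ hpB)) h6 h7 h8
    (Finset.ne_of_mem_erase ((m q).2 (by simp))).symm (Finset.ne_of_mem_erase ((m r).2 (by simp))).symm
    (Finset.ne_of_mem_erase ((m s).2 (by simp))).symm h2 h3 h4
  have z0 : ∀ i, i ∉ B → (x : V) i = 0 := fun i hi => by
    by_contra hne
    exact hi (hB (by simpa using hne))
  obtain ⟨z, hz, e5⟩ := orbit_dot hx (orbit_Nm hH hx (permCo_mem σ))
  rw [dotInt_def, Finset.sum_eq_single p] at e5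
  · have e6 : ((permCo σ • x : leechLattice) : V) p = (x : V) p := by
      conv_lhs => rw [← e1, permCo_apply']
    rw [e6] at e5
    have := sq_le_sqNorm x p
    have g1 : -8 ≤ (x : V) p := by nlinarith
    have g2 : (x : V) p ≤ 8 := by nlinarith
    have g3 : (x : V) p = 4 ∨ (x : V) p = -4 := by omega
    refine orbit_odd_of_two hH hz (p := none) ?_
    rcases g3 with g3 | g3 <;> rw [g3] at e5 <;> omega
  · intro i _ hi
    by_cases hiB : i ∈ B
    · rcases (m i).1 (Finset.mem_erase.2 ⟨hi, hiB⟩) with rfl | rfl | rfl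
      · conv_lhs => rw [← e2, permCo_apply', z0 _ h2', zero_mul]
      · conv_lhs => rw [← e3, permCo_apply', z0 _ h3', zero_mul]
      · conv_lhs => rw [← e4, permCo_apply', z0 _ h4', zero_mul]
    · rw [z0 i hiB, mul_zero]
  · simp

theorem orbit_odd (hne : H ≠ Nm) : ∃ z ∈ MulAction.orbit H (e8 none), Odd ((z : V) none) := by
  obtain ⟨g, hg, hg'⟩ := SetLike.exists_of_lt (lt_of_le_of_ne hH hne.symm)
  have hx : g • e8 none ∈ MulAction.orbit H (e8 none) := ⟨⟨g, hg⟩, rfl⟩
  by_cases h1 : Odd (((g • e8 none : leechLattice) : V) none)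
  · exact ⟨_, hx, h1⟩
  rw [Int.not_odd_iff_even] at h1
  by_cases h2 : ∃ q, ((g • e8 none : leechLattice) : V) q % 4 = 2
  · obtain ⟨q, hq⟩ := h2; exact orbit_odd_of_two hH hx hq
  by_cases h3 : ∃ q, ((g • e8 none : leechLattice) : V) q % 8 = 4
  · obtain ⟨q, hq⟩ := h3; exact orbit_odd_of_four hH hx hq
  push Not at h2 h3
  exfalso
  apply hg'
  have h5 := orbit_norm64 hx
  show Cong _ _
  generalize g • e8 none = x at *
  have h4 : ∀ q, ∃ w, (x : V) q = 8 * w := fun q => by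
    have := Int.even_iff.1 (leech_all_even x.2 h1 q)
    have := h2 q
    have := h3 q
    exact ⟨(x : V) q / 8, by omega⟩
  choose w hw using h4
  have h6 : sqNorm (x : V) = 64 * ∑ i, w i ^ 2 := by
    rw [sqNorm_def, Finset.mul_sum]
    exact Finset.sum_congr rfl fun i _ => by rw [hw]; ring
  have h7 := sum_sq_parity w
  rw [cong_iff]
  refine ⟨fun i => 4 * (w i - if i = none then 1 else 0), mem_leech_of_four (fun i => rfl) ?_, ?_⟩
  · rw [Finset.sum_sub_distrib, Finset.sum_ite_eq']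
    simp only [Finset.mem_univ, if_true]
    omega
  · funext i
    simp only [Pi.sub_apply, Pi.smul_apply, hw, e8_apply]
    split_ifs <;> ring

end

theorem odd64_rep (v : leechLattice) (hn : sqNorm (v : V) = 64) (h : Odd ((v : V) none)) :
    ∃ g ∈ Nm, ((g • v : leechLattice) : V) = std5 (-3) (-3) (-3) (-3) (-3) ∨
      (((g • v : leechLattice) : V) = std5 (-3) (-3) 1 1 5 ∧ ∃ i, |(v : V) i| = 5) := by
  obtain ⟨c, hc, h1⟩ := exists_one_mod _ h
  obtain ⟨σ, a, b, c', d, e, l1, l2, l3, l4, m1, m2, m3, m4, m5, h2⟩ :=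
    exists_std5 _ (by rw [norm_smul, hn]) h1
  refine ⟨permCo σ * signCo c hc, Nm.mul_mem (permCo_mem _) (signCo_mem _ _), ?_⟩
  have h3 := congrArg sqNorm h2
  rw [norm_smul, norm_smul, norm_std5, hn] at h3
  rw [mul_smul, h2]
  have b1 : -7 < a := by nlinarith [sq_nonneg b, sq_nonneg c', sq_nonneg d, sq_nonneg e]
  have b2 : e < 7 := by nlinarith [sq_nonneg b, sq_nonneg c', sq_nonneg d, sq_nonneg a]
  have key : ∀ a ∈ [(-3 : ℤ), 1, 5], ∀ b ∈ [(-3 : ℤ), 1, 5], ∀ c ∈ [(-3 : ℤ), 1, 5],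
      ∀ d ∈ [(-3 : ℤ), 1, 5], ∀ e ∈ [(-3 : ℤ), 1, 5], a ≤ b ∧ b ≤ c ∧ c ≤ d ∧ d ≤ e ∧
      64 = a ^ 2 + b ^ 2 + c ^ 2 + d ^ 2 + e ^ 2 + 19 →
      [a, b, c, d, e] = [-3, -3, -3, -3, -3] ∨ [a, b, c, d, e] = [-3, -3, 1, 1, 5] := by
    decide +kernel
  have mem : ∀ t : ℤ, -7 < t → t < 7 → t % 4 = 1 → t ∈ [(-3 : ℤ), 1, 5] := by
    intro t _ _ _
    simp only [List.mem_cons, List.not_mem_nil, or_false]
    omega
  have := key a (mem a b1 (by omega) m1) b (mem b (by omega) (by omega) m2)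
    c' (mem c' (by omega) (by omega) m3) d (mem d (by omega) (by omega) m4)
    e (mem e (by omega) b2 m5) ⟨l1, l2, l3, l4, h3⟩
  simp only [List.cons.injEq, and_true] at this
  rcases this with ⟨rfl, rfl, rfl, rfl, rfl⟩ | ⟨rfl, rfl, rfl, rfl, rfl⟩
  · exact Or.inl rfl
  · refine Or.inr ⟨rfl, (σ : Equiv.Perm GolayPt).symm none, ?_⟩
    have h4 := congrFun h2 none
    rw [permCo_apply, signCo_apply] at h4
    have h5 : std5 (-3) (-3) 1 1 5 none = 5 := rfl
    rw [h5] at h4
    split_ifs at h4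
    · rw [← abs_neg, h4]; rfl
    · rw [h4]; rfl

theorem Nm_coatom : IsCoatom Nm := by
  constructor
  · intro h
    have := index_Nm
    rw [h, Subgroup.index_top] at this
    norm_num at this
  intro H hlt
  have hH := hlt.le
  obtain ⟨z, hz, ho⟩ := orbit_odd hH hlt.ne'
  have h1 : ∃ z ∈ MulAction.orbit H (e8 none), (z : V) = std5 (-3) (-3) (-3) (-3) (-3) := by
    obtain ⟨g, hg, h | ⟨h, -⟩⟩ := odd64_rep z (orbit_norm64 hz) ho
    · exact ⟨_, orbit_Nm hH hz hg, h⟩
    · let y := decL 0x39ce759ceb39ceb3ace739d6739ce7 (by decide +kernel)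
      let w := decL 0x29ce749ce939ce93a4e739d2739d29 (by decide +kernel)
      have hy : y ∈ MulAction.orbit H (e8 none) := by
        refine orbit_cong hH (orbit_Nm hH hz hg) (by decide +kernel) ⟨w, Subtype.ext ?_⟩
        rw [AddSubgroup.coe_sub, h]
        funext p; revert p; decide +kernel
      obtain ⟨g', hg', h' | ⟨-, h'⟩⟩ := odd64_rep y (by decide +kernel) (by decide +kernel)
      · exact ⟨_, orbit_Nm hH hy hg', h'⟩
      · exact absurd h' (by decide +kernel)
  obtain ⟨z, hz, hz'⟩ := h1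
  have h2 : 174096384 ≤ (MulAction.orbit H (e8 none)).ncard := by
    have h3 := count_all (fun a => decide (Odd a ∧ |a| ≠ 5)) 64 (by norm_num)
    have h4 : cntAll (fun a => decide (Odd a ∧ |a| ≠ 5)) 64 = 174096384 := by decide +kernel
    rw [h4, ← ncard_sub (fun x => sqNorm x = (64 : ℕ) ∧ ∀ i, decide (Odd (x i) ∧ |x i| ≠ 5) = true)] at h3
    rw [← h3]
    refine Set.ncard_le_ncard ?_ ((finite_norm_sub 64).subset fun x hx => orbit_norm64 hx)
    rintro x ⟨h5, h6⟩
    simp only [decide_eq_true_eq] at h6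
    obtain ⟨g, hg, h | ⟨-, i, h⟩⟩ := odd64_rep x h5 (h6 none).1
    · have : x = g⁻¹ • z := by rw [← (Subtype.ext (h.trans hz'.symm) : g • x = z), inv_smul_smul]
      rw [this]
      exact orbit_Nm hH hz (Nm.inv_mem hg)
    · exact absurd h (h6 i).2
  have h3 := card_orbit_stab H (e8 none)
  have h4 := card_orbit_stab Nm (e8 none)
  have h5 : MulAction.stabilizer Co0 (e8 none) ≤ Nm := fun g hg => mem_Nm_of_eq (Or.inl hg)
  rw [inf_eq_right.2 (h5.trans hH)] at h3
  rw [inf_eq_right.2 h5, orbit_Nm_e8, card_Nm] at h4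
  have h6 := H.index_mul_card
  rw [card_Co0, ← h3, show Nat.card (MulAction.stabilizer Co0 (e8 none)) = 20891566080 by omega] at h6
  have h7 := Subgroup.index_dvd_of_le hH
  rw [index_Nm] at h7
  rw [← Subgroup.index_eq_one]
  generalize H.index = n at *
  generalize (MulAction.orbit H (e8 none)).ncard = m at *
  have h8 : n * m = 398034000 := by rw [← mul_assoc] at h6; omega
  have h9 : n < 3 := by
    by_contra hh
    have := Nat.mul_le_mul (not_lt.1 hh) h2
    omega
  interval_cases n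
  · omega
  · rfl
  · omega

end Cfsg.Agent.Leech
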